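import Mathlib
import Cfsg.Prelude.Def_GeometricClasses

/-!
# Project X27 (S5998): `PSL₃(p)`, `p ≡ 1 (mod 3)`, and the normalizer of `3^{1+2}`

Interface file: definitions and package statements (`Pkg*` are closed propositions). No proofs
except the trivial facts needed to state things.

Standard model: `A_ω = diag(1, ω, ω²)`, `B` = the permutation matrix `e₁ ↦ e₂ ↦ e₃ ↦ e₁`,
`R₀ = {ω^k • (A_ω^i * B^j)}` (27 matrices); `-P` (`P` = the transposition matrix `e₂ ↔ e₃`) and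
`D_ω = diag(1, 1, ω)` normalize `R₀`.
-/

set_option autoImplicit false

open scoped MatrixGroups

namespace Cfsg.Agent.Lib.Helper48.X27

universe u

section defs

variable {F : Type u} [Field F]

/-- `A_ω = diag(1, ω, ω²)` -/
def matA (ω : F) : Matrix (Fin 3) (Fin 3) F := !![1, 0, 0; 0, ω, 0; 0, 0, ω ^ 2]

/-- the permutation matrix `B`: `B e₁ = e₂`, `B e₂ = e₃`, `B e₃ = e₁` -/
def matB : Matrix (Fin 3) (Fin 3) F := !![0, 0, 1; 1, 0, 0; 0, 1, 0]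

/-- `-P`, `P` the permutation matrix of the transposition `e₂ ↔ e₃`: an involution of determinant 1 -/
def negP : Matrix (Fin 3) (Fin 3) F := !![-1, 0, 0; 0, 0, -1; 0, -1, 0]

/-- `D_ω = diag(1, 1, ω)` -/
def matD (ω : F) : Matrix (Fin 3) (Fin 3) F := !![1, 0, 0; 0, 1, 0; 0, 0, ω]

/-- `R` is the conjugate by `h` of the standard extraspecial group
`R₀ = {ω^k • (A_ω^i * B^j)}`, `ω` a primitive cube root of unity. -/
def IsStd (R : Subgroup (GL (Fin 3) F)) (h : GL (Fin 3) F) (ω : F) : Prop :=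
  ω ≠ 1 ∧ ω ^ 3 = 1 ∧
  ∀ y : GL (Fin 3) F, y ∈ R ↔ ∃ i j k : ℕ,
    ((h⁻¹ * y * h : GL (Fin 3) F) : Matrix (Fin 3) (Fin 3) F) = ω ^ k • (matA ω ^ i * matB ^ j)

end defs

/-! ## Packages -/

/-- [ROOT3] a primitive cube root of unity exists when `|F| ≡ 1 (mod 3)`. -/
def PkgRoot3 : Prop :=
  ∀ {F : Type u} [Field F] [Fintype F], Fintype.card F % 3 = 1 → ∃ ω : F, ω ≠ 1 ∧ ω ^ 3 = 1

/-- [ROOT9] every cube root of unity is a cube when `|F| ≡ 1 (mod 9)`. -/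
def PkgRoot9 : Prop :=
  ∀ {F : Type u} [Field F] [Fintype F], Fintype.card F % 9 = 1 →
    ∀ ω : F, ω ^ 3 = 1 → ∃ ζ : F, ζ ^ 3 = ω

/-- [STD] a non-abelian subgroup of order 27 and exponent 3 of `GL₃(F)` (`F` containing a primitive
cube root of unity) is conjugate to the standard one. -/
def PkgStd : Prop :=
  ∀ {F : Type u} [Field F] (ω₀ : F), ω₀ ≠ 1 → ω₀ ^ 3 = 1 →
    ∀ R : Subgroup (GL (Fin 3) F), Nat.card R = 27 → Monoid.exponent R = 3 →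
      ¬ IsMulCommutative R → ∃ (h : GL (Fin 3) F) (ω : F), IsStd R h ω

/-- [NORM] scalar multiples of `-P`, `A_ω`, `D_ω`, `D_ω²` (in the basis `h`) normalize `R`. -/
def PkgNorm : Prop :=
  ∀ {F : Type u} [Field F] (R : Subgroup (GL (Fin 3) F)) (h : GL (Fin 3) F) (ω : F),
    IsStd R h ω → Nat.card R = 27 → ∀ m : GL (Fin 3) F,
      (∃ s : F, (m : Matrix (Fin 3) (Fin 3) F) = s • negP ∨
        (m : Matrix (Fin 3) (Fin 3) F) = s • matA ω ∨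
        (m : Matrix (Fin 3) (Fin 3) F) = s • matD ω ∨
        (m : Matrix (Fin 3) (Fin 3) F) = s • (matD ω * matD ω)) →
      h * m * h⁻¹ ∈ Cfsg.Geo.subgroupNormalizer R

/-- [CENT] an element of the normalizer of `R` with `y ^ r` scalar, `r ≥ 5` prime, is scalar. -/
def PkgCent : Prop :=
  ∀ {F : Type u} [Field F] (R : Subgroup (GL (Fin 3) F)) (h : GL (Fin 3) F) (ω : F),
    IsStd R h ω → Nat.card R = 27 → ∀ y ∈ Cfsg.Geo.subgroupNormalizer R, ∀ r : ℕ, r.Prime → 5 ≤ r →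
      (∃ z : F, ((y ^ r : GL (Fin 3) F) : Matrix (Fin 3) (Fin 3) F) = z • 1) →
      ∃ z : F, (y : Matrix (Fin 3) (Fin 3) F) = z • 1

/-- [INVDIAG] a non-scalar `x ∈ SL₃(F)` with `x²` scalar (characteristic not 2) is conjugate in
`GL₃(F)` to a scalar multiple of `-P`. -/
def PkgInvDiag : Prop :=
  ∀ {F : Type u} [Field F], (2 : F) ≠ 0 → ∀ x : GL (Fin 3) F,
    x ∈ Cfsg.Geo.specialLinear (Fin 3) F →
    (∃ z : F, ((x ^ 2 : GL (Fin 3) F) : Matrix (Fin 3) (Fin 3) F) = z • 1) →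
    (∀ z : F, (x : Matrix (Fin 3) (Fin 3) F) ≠ z • 1) →
    ∃ (u : GL (Fin 3) F) (s : F),
      ((u⁻¹ * x * u : GL (Fin 3) F) : Matrix (Fin 3) (Fin 3) F) = s • negP

/-- [ORD3DIAG] a non-scalar `x ∈ SL₃(F)` with `x³` scalar (`F` containing a cube root `ζ` of the
primitive cube root of unity `ω`) is conjugate in `GL₃(F)` to a scalar multiple of `A_ω`, `D_ω` or
`D_ω²`. -/
def PkgOrd3Diag : Prop :=
  ∀ {F : Type u} [Field F] (ω ζ : F), ω ≠ 1 → ω ^ 3 = 1 → ζ ^ 3 = ω → ∀ x : GL (Fin 3) F,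
    x ∈ Cfsg.Geo.specialLinear (Fin 3) F →
    (∃ z : F, ((x ^ 3 : GL (Fin 3) F) : Matrix (Fin 3) (Fin 3) F) = z • 1) →
    (∀ z : F, (x : Matrix (Fin 3) (Fin 3) F) ≠ z • 1) →
    ∃ (u : GL (Fin 3) F) (s : F),
      ((u⁻¹ * x * u : GL (Fin 3) F) : Matrix (Fin 3) (Fin 3) F) = s • matA ω ∨
      ((u⁻¹ * x * u : GL (Fin 3) F) : Matrix (Fin 3) (Fin 3) F) = s • matD ω ∨
      ((u⁻¹ * x * u : GL (Fin 3) F) : Matrix (Fin 3) (Fin 3) F) = s • (matD ω * matD ω)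

/-- [ADJ] a `GL₃`-conjugation onto a matrix `M` commuting with all `diag(δ, 1, 1)` can be replaced
by an `SL₃`-conjugation onto `M` read in any basis `h`. -/
def PkgAdj : Prop :=
  ∀ {F : Type u} [Field F] (x u h : GL (Fin 3) F) (M : Matrix (Fin 3) (Fin 3) F),
    ((u⁻¹ * x * u : GL (Fin 3) F) : Matrix (Fin 3) (Fin 3) F) = M →
    (∀ δ : F, δ ≠ 0 → !![δ, 0, 0; 0, 1, 0; 0, 0, 1] * M = M * !![δ, 0, 0; 0, 1, 0; 0, 0, 1]) →
    ∃ g ∈ Cfsg.Geo.specialLinear (Fin 3) F,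
      ((h⁻¹ * (g⁻¹ * x * g) * h : GL (Fin 3) F) : Matrix (Fin 3) (Fin 3) F) = M

/-- [RSL] the standard group consists of matrices of determinant 1. -/
def PkgRSL : Prop :=
  ∀ {F : Type u} [Field F] (R : Subgroup (GL (Fin 3) F)) (h : GL (Fin 3) F) (ω : F),
    IsStd R h ω → R ≤ Cfsg.Geo.specialLinear (Fin 3) F

/-- [SLCARD] the order of `SL₃(F)`. -/
def PkgSLCard : Prop :=
  ∀ {F : Type u} [Field F] [Fintype F],
    Nat.card ↥(Cfsg.Geo.specialLinear (Fin 3) F) =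
      Fintype.card F ^ 3 * (Fintype.card F ^ 2 - 1) * (Fintype.card F ^ 3 - 1)

/-- [ARITH9] for `q ≡ 4, 7 (mod 9)` the 3-part of `q³(q²-1)(q³-1)` is 27. -/
def PkgArith9 : Prop :=
  ∀ q : ℕ, q % 9 = 4 ∨ q % 9 = 7 → ¬ 81 ∣ q ^ 3 * (q ^ 2 - 1) * (q ^ 3 - 1)

/-- [IDX3] if 3 divides the index of `N(R) ∩ SL₃` in `SL₃` then `|F| ≡ 1 (mod 9)`. -/
def PkgIdx3 : Prop :=
  ∀ {F : Type u} [Field F] [Fintype F] (R : Subgroup (GL (Fin 3) F)) (h : GL (Fin 3) F) (ω : F),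
    IsStd R h ω → Nat.card R = 27 → Fintype.card F % 3 = 1 →
    3 ∣ (Cfsg.Geo.subgroupNormalizer R).relIndex (Cfsg.Geo.specialLinear (Fin 3) F) →
    Fintype.card F % 9 = 1

/-- [BIG] for a prime `r ≥ 5` dividing `|SL₃(F)|` there is a non-scalar `x ∈ SL₃(F)` with
`x ^ r = 1`. -/
def PkgBig : Prop :=
  ∀ {F : Type u} [Field F] [Fintype F] (r : ℕ), r.Prime → 5 ≤ r →
    r ∣ Nat.card ↥(Cfsg.Geo.specialLinear (Fin 3) F) →
    ∃ x : GL (Fin 3) F, x ∈ Cfsg.Geo.specialLinear (Fin 3) F ∧ x ^ r = 1 ∧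
      ∀ z : F, (x : Matrix (Fin 3) (Fin 3) F) ≠ z • 1

end Cfsg.Agent.Lib.Helper48.X27
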