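import Cfsg.Agent.Lib.Helper48.X27.Defs

/-!
# Project X27 (S5998): assembly of the statement from the packages of `Defs.lean`
-/

set_option autoImplicit false

open scoped MatrixGroups

namespace Cfsg.Agent.Lib.Helper48.X27

universe u

section comm

variable {F : Type u} [Field F]

theorem diag_comm_negP (s δ : F) :
    !![δ, 0, 0; 0, 1, 0; 0, 0, 1] * (s • (negP : Matrix (Fin 3) (Fin 3) F)) =
      (s • negP) * !![δ, 0, 0; 0, 1, 0; 0, 0, 1] := by
  ext i j
  fin_cases i <;> fin_cases j <;>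
    simp [negP, Matrix.mul_apply, Fin.sum_univ_three, mul_comm]

theorem diag_comm_matA (ω s δ : F) :
    !![δ, 0, 0; 0, 1, 0; 0, 0, 1] * (s • (matA ω : Matrix (Fin 3) (Fin 3) F)) =
      (s • matA ω) * !![δ, 0, 0; 0, 1, 0; 0, 0, 1] := by
  ext i j
  fin_cases i <;> fin_cases j <;>
    simp [matA, Matrix.mul_apply, Fin.sum_univ_three, mul_comm]

theorem diag_comm_matD (ω s δ : F) :
    !![δ, 0, 0; 0, 1, 0; 0, 0, 1] * (s • (matD ω : Matrix (Fin 3) (Fin 3) F)) =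
      (s • matD ω) * !![δ, 0, 0; 0, 1, 0; 0, 0, 1] := by
  ext i j
  fin_cases i <;> fin_cases j <;>
    simp [matD, Matrix.mul_apply, Fin.sum_univ_three, mul_comm]

theorem diag_comm_matDD (ω s δ : F) :
    !![δ, 0, 0; 0, 1, 0; 0, 0, 1] * (s • (matD ω * matD ω : Matrix (Fin 3) (Fin 3) F)) =
      (s • (matD ω * matD ω)) * !![δ, 0, 0; 0, 1, 0; 0, 0, 1] := by
  ext i j
  fin_cases i <;> fin_cases j <;>
    simp [matD, Matrix.mul_apply, Fin.sum_univ_three, mul_comm]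

end comm

/-- S5998 from the packages. -/
theorem x27_of (hRoot3 : PkgRoot3.{u}) (hRoot9 : PkgRoot9.{u}) (hStd : PkgStd.{u})
    (hNorm : PkgNorm.{u}) (hCent : PkgCent.{u}) (hInvDiag : PkgInvDiag.{u})
    (hOrd3Diag : PkgOrd3Diag.{u}) (hAdj : PkgAdj.{u}) (hIdx3 : PkgIdx3.{u}) (hBig : PkgBig.{u})
    {F : Type u} [Field F] [Fintype F] {p : ℕ} [Fact p.Prime] [CharP F p]
    (hF : Fintype.card F = p) (hp3 : p % 3 = 1)
    (R : Subgroup (GL (Fin 3) F)) (hR : Nat.card R = 27) (hRe : Monoid.exponent R = 3)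
    (hRna : ¬ IsMulCommutative R) (r : ℕ) [Fact r.Prime]
    (hΩ : r ∣ (Cfsg.Geo.subgroupNormalizer R).relIndex (Cfsg.Geo.specialLinear (Fin 3) F)) :
    (∀ x ∈ Cfsg.Geo.specialLinear (Fin 3) F,
      (∃ z : F, ((x ^ r : GL (Fin 3) F) : Matrix (Fin 3) (Fin 3) F) =
        z • (1 : Matrix (Fin 3) (Fin 3) F)) →
      (∀ z : F, (x : Matrix (Fin 3) (Fin 3) F) ≠ z • (1 : Matrix (Fin 3) (Fin 3) F)) →
      ∃ g ∈ Cfsg.Geo.specialLinear (Fin 3) F, g⁻¹ * x * g ∈ Cfsg.Geo.subgroupNormalizer R) ↔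
      (r = 2 ∨ (r = 3 ∧ p % 9 = 1)) := by
  have hq3 : Fintype.card F % 3 = 1 := by rw [hF]; exact hp3
  obtain ⟨ω₀, hω₀1, hω₀3⟩ := hRoot3 hq3
  obtain ⟨h, ω, hstd⟩ := hStd ω₀ hω₀1 hω₀3 R hR hRe hRna
  have hr : r.Prime := Fact.out
  have hp : p.Prime := Fact.out
  constructor
  · intro hL
    by_cases h2 : r = 2
    · exact Or.inl h2
    by_cases h3 : r = 3
    · right
      refine ⟨h3, ?_⟩
      have := hIdx3 R h ω hstd hR hq3 (h3 ▸ hΩ)
      rw [hF] at this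
      exact this
    · exfalso
      have h5 : 5 ≤ r := by
        have h2le := hr.two_le
        rcases Nat.lt_or_ge r 5 with hlt | hge
        · have h4 : r ≠ 4 := by
            rintro rfl
            exact absurd hr (by decide)
          omega
        · exact hge
      have hdvd : r ∣ Nat.card ↥(Cfsg.Geo.specialLinear (Fin 3) F) :=
        hΩ.trans (Subgroup.relIndex_dvd_card _ _)
      obtain ⟨x, hxSL, hxr, hxns⟩ := hBig r hr h5 hdvd
      obtain ⟨g, hg, hgN⟩ := hL x hxSL ⟨1, by rw [hxr]; simp⟩ hxns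
      have hyr : (g⁻¹ * x * g) ^ r = 1 := by
        have : g⁻¹ * x * g = g⁻¹ * x * g⁻¹⁻¹ := by simp
        rw [this, conj_pow, hxr]; simp
      obtain ⟨z, hz⟩ := hCent R h ω hstd hR _ hgN r hr h5 ⟨1, by rw [hyr]; simp⟩
      apply hxns z
      have hx : x = g * (g⁻¹ * x * g) * g⁻¹ := by group
      rw [hx]
      simp only [Units.val_mul] at hz ⊢
      rw [mul_assoc (g : Matrix (Fin 3) (Fin 3) F), hz]
      simp
  · rintro (h2 | ⟨h3, h9⟩)
    · subst h2
      intro x hx hxz hxns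
      have h2F : (2 : F) ≠ 0 := by
        intro h20
        have h2' : ((2 : ℕ) : F) = 0 := by exact_mod_cast h20
        rw [CharP.cast_eq_zero_iff F p 2] at h2'
        have := Nat.le_of_dvd (by norm_num) h2'
        have := hp.two_le
        have : p = 2 := by omega
        omega
      obtain ⟨u, s, hus⟩ := hInvDiag h2F x hx hxz hxns
      obtain ⟨g, hg, hgM⟩ := hAdj x u h (s • negP) hus (fun δ _ => diag_comm_negP s δ)
      refine ⟨g, hg, ?_⟩
      have := hNorm R h ω hstd hR (h⁻¹ * (g⁻¹ * x * g) * h) ⟨s, Or.inl hgM⟩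
      have e : h * (h⁻¹ * (g⁻¹ * x * g) * h) * h⁻¹ = g⁻¹ * x * g := by group
      rwa [e] at this
    · subst h3
      have hq9 : Fintype.card F % 9 = 1 := by rw [hF]; exact h9
      obtain ⟨ζ, hζ⟩ := hRoot9 hq9 ω hstd.2.1
      intro x hx hxz hxns
      obtain ⟨u, s, hus⟩ := hOrd3Diag ω ζ hstd.1 hstd.2.1 hζ x hx hxz hxns
      have key : ∀ M : Matrix (Fin 3) (Fin 3) F,
          ((u⁻¹ * x * u : GL (Fin 3) F) : Matrix (Fin 3) (Fin 3) F) = M →
          (∀ δ : F, δ ≠ 0 →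
            !![δ, 0, 0; 0, 1, 0; 0, 0, 1] * M = M * !![δ, 0, 0; 0, 1, 0; 0, 0, 1]) →
          (∀ m : GL (Fin 3) F, (m : Matrix (Fin 3) (Fin 3) F) = M →
            h * m * h⁻¹ ∈ Cfsg.Geo.subgroupNormalizer R) →
          ∃ g ∈ Cfsg.Geo.specialLinear (Fin 3) F,
            g⁻¹ * x * g ∈ Cfsg.Geo.subgroupNormalizer R := by
        intro M hM hcomm hN
        obtain ⟨g, hg, hgM⟩ := hAdj x u h M hM hcomm
        refine ⟨g, hg, ?_⟩
        have := hN (h⁻¹ * (g⁻¹ * x * g) * h) hgM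
        have e : h * (h⁻¹ * (g⁻¹ * x * g) * h) * h⁻¹ = g⁻¹ * x * g := by group
        rwa [e] at this
      rcases hus with hus | hus | hus
      · exact key _ hus (fun δ _ => diag_comm_matA ω s δ)
          (fun m hm => hNorm R h ω hstd hR m ⟨s, Or.inr (Or.inl hm)⟩)
      · exact key _ hus (fun δ _ => diag_comm_matD ω s δ)
          (fun m hm => hNorm R h ω hstd hR m ⟨s, Or.inr (Or.inr (Or.inl hm))⟩)
      · exact key _ hus (fun δ _ => diag_comm_matDD ω s δ)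
          (fun m hm => hNorm R h ω hstd hR m ⟨s, Or.inr (Or.inr (Or.inr hm))⟩)

/-- [IDX3] from [RSL], [SLCARD], [ARITH9] (interface check; the proof is package [IDX3]). -/
def PkgIdx3Of : Prop := PkgRSL.{u} → PkgSLCard.{u} → PkgArith9 → PkgIdx3.{u}

end Cfsg.Agent.Lib.Helper48.X27
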