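import Cfsg.Agent.Lib.Helper48.X27.Easy

/-!
# Project X27 (S5998): packages [SLCARD], [IDX3], [BIG]
-/

set_option autoImplicit false

open scoped MatrixGroups

namespace Cfsg.Agent.Lib.Helper48.X27

universe u

theorem pkgSLCard : PkgSLCard.{u} := by
  intro F _ _
  have h1 := Subgroup.card_eq_card_quotient_mul_card_subgroup
    (Matrix.GeneralLinearGroup.det : GL (Fin 3) F →* Fˣ).ker
  have h2 : Nat.card (GL (Fin 3) F ⧸ (Matrix.GeneralLinearGroup.det : GL (Fin 3) F →* Fˣ).ker)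
      = Nat.card Fˣ :=
    Nat.card_congr (QuotientGroup.quotientKerEquivOfSurjective _
      Matrix.GeneralLinearGroup.det_surjective).toEquiv
  have h3 : Nat.card (GL (Fin 3) F) =
      ∏ i : Fin 3, (Fintype.card F ^ 3 - Fintype.card F ^ (i : ℕ)) :=
    Matrix.card_GL_field 3
  rw [h2, Nat.card_units, Nat.card_eq_fintype_card (α := F), h3, Fin.prod_univ_three] at h1
  show Nat.card ↥((Matrix.GeneralLinearGroup.det : GL (Fin 3) F →* Fˣ).ker) = _
  generalize Nat.card ↥((Matrix.GeneralLinearGroup.det : GL (Fin 3) F →* Fˣ).ker) = N at h1 ⊢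
  have hq : 2 ≤ Fintype.card F := Fintype.one_lt_card
  generalize Fintype.card F = q at h1 hq ⊢
  have e1 : 1 ≤ q := by omega
  have e2 : 1 ≤ q ^ 2 := Nat.one_le_pow _ _ e1
  have e3 : 1 ≤ q ^ 3 := Nat.one_le_pow _ _ e1
  have e4 : q ≤ q ^ 3 := by nlinarith
  have e5 : q ^ 2 ≤ q ^ 3 := by nlinarith
  have e : (q ^ 3 - q ^ ((0 : Fin 3) : ℕ)) * (q ^ 3 - q ^ ((1 : Fin 3) : ℕ)) *
      (q ^ 3 - q ^ ((2 : Fin 3) : ℕ)) = (q - 1) * (q ^ 3 * (q ^ 2 - 1) * (q ^ 3 - 1)) := by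
    simp only [Fin.val_zero, Fin.val_one, Fin.val_two, pow_zero, pow_one]
    zify [e1, e2, e3, e4, e5]
    ring
  rw [e] at h1
  exact (Nat.eq_of_mul_eq_mul_left (by omega) h1).symm

theorem pkgIdx3_of (hRSL : PkgRSL.{u}) (hSL : PkgSLCard.{u}) (hA : PkgArith9) : PkgIdx3.{u} := by
  intro F _ _ R h ω hstd hR hq3 hdvd
  have hle : R ≤ Cfsg.Geo.subgroupNormalizer R ⊓ Cfsg.Geo.specialLinear (Fin 3) F :=
    le_inf Subgroup.le_normalizer (hRSL R h ω hstd)
  have h27 : 27 ∣ Nat.card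
      ↥(Cfsg.Geo.subgroupNormalizer R ⊓ Cfsg.Geo.specialLinear (Fin 3) F) := by
    rw [← hR]
    exact Subgroup.card_dvd_of_le hle
  have hmul := Subgroup.relIndex_mul_relIndex (⊥ : Subgroup (GL (Fin 3) F))
    (Cfsg.Geo.subgroupNormalizer R ⊓ Cfsg.Geo.specialLinear (Fin 3) F)
    (Cfsg.Geo.specialLinear (Fin 3) F) bot_le inf_le_right
  rw [Subgroup.relIndex_bot_left, Subgroup.relIndex_bot_left, Subgroup.inf_relIndex_right,
    hSL] at hmul
  have h81 : 81 ∣ Fintype.card F ^ 3 * (Fintype.card F ^ 2 - 1) * (Fintype.card F ^ 3 - 1) := by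
    rw [← hmul]
    have : (81 : ℕ) = 27 * 3 := by norm_num
    rw [this]
    exact Nat.mul_dvd_mul h27 hdvd
  by_contra h9
  exact hA (Fintype.card F) (by omega) h81

theorem pkgIdx3 : PkgIdx3.{u} := pkgIdx3_of pkgRSL pkgSLCard pkgArith9

theorem pkgBig : PkgBig.{u} := by
  intro F _ _ r hr h5 hdvd
  haveI : Fact r.Prime := ⟨hr⟩
  obtain ⟨x, hx⟩ := exists_prime_orderOf_dvd_card' r hdvd
  have hxr : x ^ r = 1 := by rw [← hx]; exact pow_orderOf_eq_one x
  have hxr' : (x : GL (Fin 3) F) ^ r = 1 := by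
    have := congrArg Subtype.val hxr
    simpa using this
  refine ⟨(x : GL (Fin 3) F), x.2, hxr', ?_⟩
  intro z hz
  have hdet : Matrix.det ((x : GL (Fin 3) F) : Matrix (Fin 3) (Fin 3) F) = 1 := by
    have hmem : (x : GL (Fin 3) F) ∈ (Matrix.GeneralLinearGroup.det : GL (Fin 3) F →* Fˣ).ker :=
      x.2
    rw [MonoidHom.mem_ker] at hmem
    have := congrArg Units.val hmem
    simpa using this
  have hz3 : z ^ 3 = 1 := by
    rw [hz, Matrix.det_smul] at hdet
    simpa using hdet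
  have hzr : z ^ r = 1 := by
    have h1 : ((x : GL (Fin 3) F) : Matrix (Fin 3) (Fin 3) F) ^ r = 1 := by
      have := congrArg (fun t : GL (Fin 3) F => (t : Matrix (Fin 3) (Fin 3) F)) hxr'
      simpa using this
    rw [hz, smul_pow, one_pow] at h1
    have := congrFun (congrFun h1 0) 0
    simpa using this
  have hz1 : z = 1 := by
    have h1 : orderOf z ∣ 3 := orderOf_dvd_of_pow_eq_one hz3
    have h2 : orderOf z ∣ r := orderOf_dvd_of_pow_eq_one hzr
    have hg : Nat.gcd 3 r = 1 := by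
      have : Nat.Coprime 3 r := (Nat.coprime_primes (by norm_num) hr).mpr (by omega)
      exact this
    have h3 : orderOf z ∣ 1 := hg ▸ Nat.dvd_gcd h1 h2
    exact orderOf_eq_one_iff.mp (Nat.dvd_one.mp h3)
  have hx1 : x = 1 := by
    apply Subtype.ext
    apply Units.ext
    rw [hz, hz1]
    simp
  rw [hx1, orderOf_one] at hx
  omega

end Cfsg.Agent.Lib.Helper48.X27
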