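import Cfsg.Agent.Lib.Helper48.X27.Defs

/-!
# Project X27 (S5998): the easy packages [ROOT3], [ROOT9], [ADJ], [ARITH9], [RSL]
-/

set_option autoImplicit false

open scoped MatrixGroups

namespace Cfsg.Agent.Lib.Helper48.X27

universe u

theorem pkgRoot3 : PkgRoot3.{u} := by
  intro F _ _ hq
  have hcard : Nat.card Fˣ = Fintype.card F - 1 := by
    rw [Nat.card_units, Nat.card_eq_fintype_card]
  have h3 : 3 ∣ Nat.card Fˣ := by
    rw [hcard]; omega
  haveI : Fact (Nat.Prime 3) := ⟨by norm_num⟩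
  obtain ⟨g, hg⟩ := exists_prime_orderOf_dvd_card' 3 h3
  refine ⟨(g : F), ?_, ?_⟩
  · intro h1
    have : g = 1 := Units.ext (by simpa using h1)
    rw [this, orderOf_one] at hg
    omega
  · have : g ^ 3 = 1 := by rw [← hg]; exact pow_orderOf_eq_one g
    have := congrArg (fun t : Fˣ => (t : F)) this
    simpa using this

theorem pkgRoot9 : PkgRoot9.{u} := by
  intro F _ _ hq ω hω
  have hcard : Nat.card Fˣ = Fintype.card F - 1 := by
    rw [Nat.card_units, Nat.card_eq_fintype_card]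
  have hω0 : ω ≠ 0 := by
    rintro rfl
    simp at hω
  obtain ⟨g, hg⟩ := IsCyclic.exists_generator (α := Fˣ)
  have hord : orderOf g = Nat.card Fˣ := orderOf_eq_card_of_forall_mem_zpowers hg
  obtain ⟨t, ht⟩ := Subgroup.mem_zpowers_iff.mp (hg (Units.mk0 ω hω0))
  -- `g ^ (3 t) = 1`
  have h3t : g ^ (3 * t) = 1 := by
    rw [mul_comm, zpow_mul, ht]
    apply Units.ext
    simp [hω]
  have hdvd : ((orderOf g : ℕ) : ℤ) ∣ 3 * t := orderOf_dvd_iff_zpow_eq_one.mpr h3t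
  obtain ⟨m, hm⟩ : ∃ m : ℕ, Fintype.card F - 1 = 9 * m := ⟨(Fintype.card F - 1) / 9, by omega⟩
  rw [hord, hcard, hm] at hdvd
  have hdvd' : (3 * (m : ℤ)) ∣ t := by
    obtain ⟨c, hc⟩ := hdvd
    refine ⟨c, ?_⟩
    push_cast at hc
    linarith
  obtain ⟨t', ht'⟩ := hdvd'
  refine ⟨((g ^ ((m : ℤ) * t') : Fˣ) : F), ?_⟩
  have : (g ^ ((m : ℤ) * t')) ^ 3 = Units.mk0 ω hω0 := by
    rw [← ht, ht', ← zpow_natCast, ← zpow_mul]
    congr 1
    push_cast
    ring
  have := congrArg (fun t : Fˣ => (t : F)) this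
  simpa using this

theorem pkgAdj : PkgAdj.{u} := by
  intro F _ x u h M hM hcomm
  set δ : Fˣ := Matrix.GeneralLinearGroup.det h * (Matrix.GeneralLinearGroup.det u)⁻¹ with hδ
  have hdet : Matrix.det (!![(δ : F), 0, 0; 0, 1, 0; 0, 0, 1] : Matrix (Fin 3) (Fin 3) F) = δ := by
    rw [Matrix.det_fin_three]
    simp
  let c : GL (Fin 3) F := Matrix.GeneralLinearGroup.mkOfDetNeZero
    (!![(δ : F), 0, 0; 0, 1, 0; 0, 0, 1] : Matrix (Fin 3) (Fin 3) F) (by rw [hdet]; exact δ.ne_zero)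
  have hc : (c : Matrix (Fin 3) (Fin 3) F) = !![(δ : F), 0, 0; 0, 1, 0; 0, 0, 1] := rfl
  have hcdet : Matrix.GeneralLinearGroup.det c = δ := by
    apply Units.ext
    rw [Matrix.GeneralLinearGroup.val_det_apply, hc, hdet]
  refine ⟨u * c * h⁻¹, ?_, ?_⟩
  · show u * c * h⁻¹ ∈ (Matrix.GeneralLinearGroup.det : GL (Fin 3) F →* Fˣ).ker
    rw [MonoidHom.mem_ker, map_mul, map_mul, map_inv, hcdet, hδ,
      mul_comm (Matrix.GeneralLinearGroup.det h), ← mul_assoc, mul_inv_cancel, one_mul,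
      mul_inv_cancel]
  · have e : h⁻¹ * ((u * c * h⁻¹)⁻¹ * x * (u * c * h⁻¹)) * h = c⁻¹ * (u⁻¹ * x * u) * c := by group
    rw [e, Units.val_mul, Units.val_mul, hM, mul_assoc, hc, ← hcomm δ δ.ne_zero, ← hc, ← mul_assoc]
    simp

theorem pkgArith9 : PkgArith9 := by
  intro q hq hdvd
  have key : ∀ x : ZMod 81, (x.val % 9 = 4 ∨ x.val % 9 = 7) →
      x ^ 3 * (x ^ 2 - 1) * (x ^ 3 - 1) ≠ 0 := by decide
  have hq1 : 1 ≤ q := by omega
  have h2 : 1 ≤ q ^ 2 := Nat.one_le_pow _ _ hq1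
  have h3 : 1 ≤ q ^ 3 := Nat.one_le_pow _ _ hq1
  have hz : ((q ^ 3 * (q ^ 2 - 1) * (q ^ 3 - 1) : ℕ) : ZMod 81) = 0 :=
    (ZMod.natCast_eq_zero_iff _ _).mpr hdvd
  push_cast [Nat.cast_sub h2, Nat.cast_sub h3] at hz
  refine key (q : ZMod 81) ?_ hz
  rw [ZMod.val_natCast, Nat.mod_mod_of_dvd q (by norm_num : 9 ∣ 81)]
  exact hq

section rsl

variable {F : Type u} [Field F]

theorem det_matA (ω : F) : Matrix.det (matA ω) = ω ^ 3 := by
  rw [matA, Matrix.det_fin_three]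
  simp
  ring

theorem det_matB : Matrix.det (matB : Matrix (Fin 3) (Fin 3) F) = 1 := by
  rw [matB, Matrix.det_fin_three]
  simp

end rsl

theorem pkgRSL : PkgRSL.{u} := by
  intro F _ R h ω hstd y hy
  obtain ⟨hω1, hω3, hmem⟩ := hstd
  obtain ⟨i, j, k, hijk⟩ := (hmem y).mp hy
  show y ∈ (Matrix.GeneralLinearGroup.det : GL (Fin 3) F →* Fˣ).ker
  rw [MonoidHom.mem_ker]
  have e : Matrix.GeneralLinearGroup.det y = Matrix.GeneralLinearGroup.det (h⁻¹ * y * h) := by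
    rw [map_mul, map_mul, map_inv, mul_comm _ (Matrix.GeneralLinearGroup.det y),
      inv_mul_cancel_right]
  rw [e]
  apply Units.ext
  rw [Matrix.GeneralLinearGroup.val_det_apply, hijk, Matrix.det_smul, Matrix.det_mul,
    Matrix.det_pow, Matrix.det_pow, det_matA, det_matB, hω3]
  simp only [Fintype.card_fin, one_pow, mul_one, Units.val_one]
  rw [← pow_mul, mul_comm, pow_mul, hω3, one_pow]

end Cfsg.Agent.Lib.Helper48.X27
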