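import Cfsg.Agent.Lib.Helper48.X27.Defs

/-!
# Project X27 (S5998): package [INVDIAG]

A non-scalar `x ∈ SL₃(F)` with `x²` scalar (characteristic not 2) is `GL₃`-conjugate to a scalar
multiple of `-P`.
-/

set_option autoImplicit false
open scoped MatrixGroups
open Matrix

namespace Cfsg.Agent.Lib.Helper48.X27
universe u
variable {F : Type u} [Field F]

/-- the matrix with columns `p`, `q`, `t` -/
def colMat (p q t : Fin 3 → F) : Matrix (Fin 3) (Fin 3) F :=
  Matrix.of fun i j => ![p i, q i, t i] j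

theorem exists_cyclic (Y : Matrix (Fin 3) (Fin 3) F) (hns : ∀ z : F, Y ≠ z • 1) :
    ∃ w t : Fin 3 → F, (colMat w (Y *ᵥ w) t).det ≠ 0 := by
  by_contra hcon
  push Not at hcon
  apply hns (Y 0 0)
  have h1 := hcon ![1,0,0] ![0,0,1]
  have h2 := hcon ![1,0,0] ![0,1,0]
  have h3 := hcon ![0,1,0] ![0,0,1]
  have h4 := hcon ![0,1,0] ![1,0,0]
  have h5 := hcon ![0,0,1] ![1,0,0]
  have h6 := hcon ![0,0,1] ![0,1,0]
  have h7 := hcon ![1,1,0] ![0,0,1]
  have h8 := hcon ![1,0,1] ![0,1,0]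
  simp [colMat, Matrix.det_fin_three, Matrix.mulVec, dotProduct, Fin.sum_univ_three] at h1 h2 h3 h4 h5 h6 h7 h8
  ext i j
  fin_cases i <;> fin_cases j <;> simp
  all_goals first | assumption | linear_combination h7 - h1 + h3 | linear_combination -h8 - h2 + h6

/-- normal form of a non-scalar involution of determinant 1 -/
theorem inv_normal_form (h2 : (2 : F) ≠ 0) (Y : Matrix (Fin 3) (Fin 3) F) (hY : Y * Y = 1)
    (hdet : Y.det = 1) (hns : ∀ z : F, Y ≠ z • 1) :
    ∃ U : Matrix (Fin 3) (Fin 3) F, U.det ≠ 0 ∧ Y * U = U * negP := by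
  obtain ⟨w, t, hU₀⟩ := exists_cyclic Y hns
  set U₀ := colMat w (Y *ᵥ w) t with hU₀def
  have hunit : IsUnit U₀.det := isUnit_iff_ne_zero.mpr hU₀
  set k : Fin 3 → F := U₀⁻¹ *ᵥ (Y *ᵥ t) with hk
  have hUk : U₀ *ᵥ k = Y *ᵥ t := by
    rw [hk, Matrix.mulVec_mulVec, Matrix.mul_nonsing_inv U₀ hunit, Matrix.one_mulVec]
  set C₀ : Matrix (Fin 3) (Fin 3) F := !![0, 1, k 0; 1, 0, k 1; 0, 0, k 2] with hC₀
  have hYY : ∀ v : Fin 3 → F, Y *ᵥ (Y *ᵥ v) = v := by
    intro v
    rw [Matrix.mulVec_mulVec, hY, Matrix.one_mulVec]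
  have hYU : Y * U₀ = U₀ * C₀ := by
    ext i j
    have e3 := congrFun hUk i
    have e2 := congrFun (hYY w) i
    simp only [Matrix.mulVec, dotProduct, Fin.sum_univ_three] at e3 e2
    fin_cases j
    · simp [hU₀def, hC₀, colMat, Matrix.mul_apply, Fin.sum_univ_three, Matrix.mulVec, dotProduct]
    · simp [hU₀def, hC₀, colMat, Matrix.mul_apply, Fin.sum_univ_three, Matrix.mulVec, dotProduct]
      exact e2
    · simp [hU₀def, hC₀, colMat, Matrix.mul_apply, Fin.sum_univ_three, Matrix.mulVec, dotProduct]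
      simp [hU₀def, colMat, Matrix.mulVec, dotProduct, Fin.sum_univ_three] at e3
      linear_combination -e3
  have hCC : C₀ * C₀ = 1 := by
    have h1 : U₀ * (C₀ * C₀) = U₀ * 1 := by
      rw [← Matrix.mul_assoc, ← hYU, Matrix.mul_assoc, ← hYU, ← Matrix.mul_assoc, hY,
        Matrix.one_mul, Matrix.mul_one]
    have h2 := congrArg (fun M => U₀⁻¹ * M) h1
    simp only [← Matrix.mul_assoc, Matrix.nonsing_inv_mul U₀ hunit, Matrix.one_mul] at h2
    simpa using h2
  have hCdet : C₀.det = 1 := by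
    have h1 := congrArg Matrix.det hYU
    rw [Matrix.det_mul, Matrix.det_mul, hdet, one_mul] at h1
    have h3 : U₀.det * C₀.det = U₀.det * 1 := by rw [← h1, mul_one]
    exact mul_left_cancel₀ hU₀ h3
  have hk2 : k 2 = -1 := by
    rw [hC₀, Matrix.det_fin_three] at hCdet
    simp at hCdet
    linear_combination -hCdet
  have hk1 : k 1 = k 0 := by
    have h1 := congrFun (congrFun hCC 0) 2
    simp [hC₀, Matrix.mul_apply, Fin.sum_univ_three, hk2] at h1
    linear_combination h1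
  set V : Matrix (Fin 3) (Fin 3) F := !![-(k 0) / 2, 1, 0; -(k 0) / 2, 0, -1; 1, 0, 0] with hV
  have hVdet : V.det = -1 := by
    rw [hV, Matrix.det_fin_three]
    simp
  have hCV : C₀ * V = V * negP := by
    ext i j
    fin_cases i <;> fin_cases j <;>
      simp [hC₀, hV, negP, Matrix.mul_apply, Fin.sum_univ_three, hk1, hk2] <;> field_simp <;> ring
  refine ⟨U₀ * V, ?_, ?_⟩
  · rw [Matrix.det_mul, hVdet]
    simpa using hU₀
  · rw [← Matrix.mul_assoc, hYU, Matrix.mul_assoc, hCV, Matrix.mul_assoc]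

theorem pkgInvDiag : PkgInvDiag.{u} := by
  intro F _ h2 x hx hxz hxns
  obtain ⟨z, hz⟩ := hxz
  set X : Matrix (Fin 3) (Fin 3) F := (x : Matrix (Fin 3) (Fin 3) F) with hX
  have hXX : X * X = z • 1 := by
    rw [← hz]
    simp [pow_two, hX]
  have hdet : X.det = 1 := by
    have hmem : x ∈ (Matrix.GeneralLinearGroup.det : GL (Fin 3) F →* Fˣ).ker := hx
    rw [MonoidHom.mem_ker] at hmem
    have := congrArg Units.val hmem
    simpa using this
  have hz3 : z ^ 3 = 1 := by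
    have h1 := congrArg Matrix.det hXX
    rw [Matrix.det_mul, hdet, Matrix.det_smul] at h1
    simpa using h1.symm
  have hz0 : z ≠ 0 := by
    rintro rfl
    simp at hz3
  set s : F := z ^ 2 with hs
  have hs0 : s ≠ 0 := pow_ne_zero _ hz0
  have hs2 : s ^ 2 = z := by
    rw [hs, ← pow_mul]
    calc z ^ (2 * 2) = z ^ 3 * z := by ring
      _ = z := by rw [hz3, one_mul]
  have hs3 : s ^ 3 = 1 := by
    rw [hs, ← pow_mul]
    calc z ^ (2 * 3) = (z ^ 3) ^ 2 := by ring
      _ = 1 := by rw [hz3]; simp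
  set Y : Matrix (Fin 3) (Fin 3) F := s⁻¹ • X with hY
  have hXY : X = s • Y := by rw [hY, smul_smul, mul_inv_cancel₀ hs0, one_smul]
  have hYY : Y * Y = 1 := by
    rw [hY, Matrix.smul_mul, Matrix.mul_smul, hXX, smul_smul, smul_smul]
    have h1 : s⁻¹ * s⁻¹ * z = 1 := by
      rw [← hs2]
      field_simp
    rw [h1, one_smul]
  have hYdet : Y.det = 1 := by
    rw [hY, Matrix.det_smul, hdet]
    simp only [Fintype.card_fin, mul_one]
    rw [inv_pow, hs3, inv_one]
  have hYns : ∀ c : F, Y ≠ c • 1 := by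
    intro c hc
    apply hxns (s * c)
    rw [hXY, hc, smul_smul]
  obtain ⟨U, hUdet, hYU⟩ := inv_normal_form h2 Y hYY hYdet hYns
  let u : GL (Fin 3) F := Matrix.GeneralLinearGroup.mkOfDetNeZero U hUdet
  have hu : (u : Matrix (Fin 3) (Fin 3) F) = U := rfl
  refine ⟨u, s, ?_⟩
  have hXU : X * U = U * (s • negP) := by
    rw [hXY, Matrix.smul_mul, hYU, Matrix.mul_smul]
  have hinv : ((u⁻¹ : GL (Fin 3) F) : Matrix (Fin 3) (Fin 3) F) * U = 1 := by
    rw [← hu, ← Units.val_mul, inv_mul_cancel]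
    rfl
  rw [Units.val_mul, Units.val_mul, ← hX, hu, Matrix.mul_assoc, hXU, ← Matrix.mul_assoc, hinv,
    Matrix.one_mul]

end Cfsg.Agent.Lib.Helper48.X27
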